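import Cfsg.Agent.H778.FX.Row
import Cfsg.Agent.LieClassical.SLGen
import Cfsg.Agent.H358.Bs.BridgeSL
import Cfsg.Agent.H74.PslF

/-!
# S5719, PSL row, `m ≥ 8`: no fundamental involution in `A`
-/

set_option autoImplicit false

namespace Cfsg.Agent.H778.FX

open Subgroup Module Matrix Cfsg.Agent.H847.Bs Cfsg.Agent.H209.Fxy Cfsg.Agent.H440.Bs Cfsg.Agent.H358.Bs
  Cfsg.Agent.LieClassical.SLGen

section Phi

variable {F V : Type*} [Field F] [AddCommGroup V] [Module F V] {ι : Type*} [Fintype ι] [DecidableEq ι]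
  (b : Basis ι F V)

/-- `SL_n(F) → GL(V)` -/
noncomputable def phi : SpecialLinearGroup ι F →* (V ≃ₗ[F] V) :=
  (conjE b.equivFun.symm).toMonoidHom.comp SpecialLinearGroup.toLin'

theorem phi_apply (g : SpecialLinearGroup ι F) (x : V) :
    phi b g x = b.equivFun.symm (SpecialLinearGroup.toLin' g (b.equivFun x)) := rfl

theorem slV_le_range : slV F V ≤ (phi b).range := by
  intro g hg
  have h1 : (conjE b.equivFun g) ∈ slV F (ι → F) := by
    rw [← map_slV b.equivFun]
    exact ⟨g, hg, rfl⟩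
  have h2 : LinearMap.det (conjE b.equivFun g : (ι → F) →ₗ[F] (ι → F)) = 1 := h1
  obtain ⟨M, h3⟩ : ∃ M : SpecialLinearGroup ι F, SpecialLinearGroup.toLin' M = conjE b.equivFun g := by
    refine ⟨⟨LinearMap.toMatrix' (conjE b.equivFun g : (ι → F) →ₗ[F] (ι → F)), by rw [LinearMap.det_toMatrix', h2]⟩, ?_⟩
    apply LinearEquiv.toLinearMap_injective
    exact Matrix.toLin'_toMatrix' _
  refine ⟨M, ?_⟩
  ext x
  rw [phi_apply, h3, conjE_apply', LinearEquiv.symm_apply_apply]

theorem range_le_slV : (phi b).range ≤ slV F V := by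
  rintro _ ⟨M, rfl⟩
  have h1 : (SpecialLinearGroup.toLin' M : (ι → F) ≃ₗ[F] (ι → F)) ∈ slV F (ι → F) := by
    show LinearMap.det (Matrix.toLin' (M : Matrix ι ι F)) = 1
    rw [LinearMap.det_toLin', M.2]
  rw [← map_slV b.equivFun.symm]
  exact ⟨_, h1, rfl⟩

theorem phi_transvection {i j : ι} (h : i ≠ j) (c : F) (x : V) :
    phi b (SpecialLinearGroup.transvection h c) x = x + (c * b.repr x j) • b i := by
  rw [phi_apply]
  have h1 : SpecialLinearGroup.toLin' (SpecialLinearGroup.transvection h c : SpecialLinearGroup ι F) (b.equivFun x) =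
      b.equivFun x + (c * b.equivFun x j) • Pi.single i (1 : F) := transvection_smul h c (b.equivFun x)
  have h2 : b.equivFun.symm (Pi.single i (1 : F)) = b i := by
    rw [LinearEquiv.symm_apply_eq]
    ext k
    rw [b.equivFun_self, Pi.single_apply]
    simp only [eq_comm]
  rw [h1, map_add, map_smul, LinearEquiv.symm_apply_apply, h2, Basis.equivFun_apply]

omit [Fintype ι] [DecidableEq ι] in
/-- the complementary spans of a basis -/
theorem isCompl_basis (k l : ι) : IsCompl (Submodule.span F (b '' {k, l})) (Submodule.span F (b '' {k, l}ᶜ)) := by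
  constructor
  · exact b.linearIndependent.disjoint_span_image disjoint_compl_right
  · rw [codisjoint_iff, ← Submodule.span_union, ← Set.image_union, Set.union_compl_self, Set.image_univ, b.span_eq]

omit [Fintype ι] in
theorem finrank_pair {k l : ι} (hkl : k ≠ l) : finrank F (Submodule.span F (b '' {k, l})) = 2 := by
  have h1 : LinearIndependent F (fun x : ({k, l} : Set ι) => b x) := b.linearIndependent.comp _ Subtype.val_injective
  have h2 : b '' {k, l} = Set.range (fun x : ({k, l} : Set ι) => b x) := by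
    ext x
    simp [eq_comm]
  rw [h2, finrank_span_eq_card h1, ← Nat.card_eq_fintype_card, Nat.card_coe_set_eq, Set.ncard_pair hkl]

end Phi

section

variable {F V : Type} [Field F] [Finite F] [AddCommGroup V] [Module F V] [FiniteDimensional F V]
  {T : Type*} [Group T] [Finite T] [IsSimpleGroup T] {A : Subgroup T} {Γ : Subgroup (MulAut T)}

theorem arith {q m i : ℕ} (hq : 3 ≤ q) (hm : 8 ≤ m) (h1 : (q ^ (m - 2) - 1) / (q - 1) ≤ i)
    (h2 : i ^ 5 < 2 * q ^ (2 * ((m - 2) * 2))) : False := by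
  have h3 : q ^ (m - 3) + 1 ≤ (q ^ (m - 2) - 1) / (q - 1) := by
    rw [Nat.le_div_iff_mul_le (by omega)]
    obtain ⟨n, rfl⟩ : ∃ n, m = n + 4 := ⟨m - 4, by omega⟩
    rw [show n + 4 - 3 = n + 1 from by omega, show n + 4 - 2 = n + 2 from by omega]
    obtain ⟨r, rfl⟩ : ∃ r, q = r + 1 := ⟨q - 1, by omega⟩
    rw [Nat.add_sub_cancel]
    have h4 : 1 ≤ (r + 1) ^ (n + 2) := Nat.one_le_pow _ _ (by omega)
    have h5 : r + 1 ≤ (r + 1) ^ (n + 1) := Nat.le_self_pow (by omega) _
    have h6 : (r + 1) ^ (n + 2) = (r + 1) ^ (n + 1) * (r + 1) := pow_succ _ _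
    have h7 : ((r + 1) ^ (n + 1) + 1) * r + 1 ≤ (r + 1) ^ (n + 2) := by
      rw [h6]
      nlinarith
    omega
  have h4 : (q ^ (m - 3)) ^ 5 ≤ i ^ 5 := Nat.pow_le_pow_left (by omega) 5
  rw [← pow_mul] at h4
  have h5 : 2 * q ^ (2 * ((m - 2) * 2)) ≤ q ^ (2 * ((m - 2) * 2) + 1) := by
    rw [pow_succ, mul_comm]
    exact Nat.mul_le_mul_left _ (by omega)
  have h6 : q ^ (2 * ((m - 2) * 2) + 1) ≤ q ^ ((m - 3) * 5) := Nat.pow_le_pow_right (by omega) (by omega)
  omega

/-- **`SL` of the fixed space lies in `A`.** -/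
theorem fix_mem (h : IF A Γ) (hna : ∃ a b : T, a * b ≠ b * a) {π : slV F V →* T} (hπ : Lft π) (h2 : (2 : F) ≠ 0)
    (h8 : 8 ≤ finrank F V) {z : slV F V} {W U : Submodule F V} (hc : IsCompl W U) (hW2 : finrank F W = 2)
    (hW : ∀ w ∈ W, (z : V ≃ₗ[F] V) w = -w) (hU : ∀ u ∈ U, (z : V ≃ₗ[F] V) u = u) (hz : π z ∈ A)
    (g : slV F V) (hgW : ∀ w ∈ W, (g : V ≃ₗ[F] V) w = w) (hgU : Inv (g : V ≃ₗ[F] V) U) : π g ∈ A := by
  classical
  have := Fintype.ofFinite F
  have hfin : Finite V := finite_of_fd (F := F)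
  have hq := three_le h2
  have hs := Submodule.finrank_add_eq_of_isCompl hc
  have hU0 : U ≠ ⊥ := by
    rintro rfl
    rw [finrank_bot] at hs
    omega
  have hW0 : W ≠ ⊥ := by
    rintro rfl
    rw [finrank_bot] at hW2
    omega
  let f : slV F U →* slV F V := (glueSL hc).comp (MonoidHom.inr _ _)
  have hf : ∀ x : slV F U, f x * z = z * f x := by
    intro x
    apply Subtype.ext
    change glue hc 1 x * (z : V ≃ₗ[F] V) = (z : V ≃ₗ[F] V) * glue hc 1 x
    ext v
    obtain ⟨d, u, rfl⟩ := exists_add' hc v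
    rw [LinearEquiv.mul_apply, LinearEquiv.mul_apply, map_add, hW d d.2, hU u u.2, map_add, map_neg, glue_add,
      glue_left, glue_right, map_add, hU _ ((x : U ≃ₗ[F] U) u).2]
    change -((d : V)) + _ = (z : V ≃ₗ[F] V) (d : V) + _
    rw [hW d d.2]
  have h3 := key1 h hna hπ hq h2 hc.symm (t := z) (μ := 1) one_ne_zero
    (fun v hv => by rw [one_smul]; exact hU v hv) (fun v hv => by rw [neg_smul, one_smul]; exact hW v hv) hU0 hW0 hz f hf
  rw [hW2] at h3
  have hUm : finrank F U = finrank F V - 2 := by omega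
  have h4 : (A.comap π).comap f = ⊤ := by
    by_contra hne
    obtain ⟨e⟩ := sl_equiv (F := F) (V := U) (n := finrank F V - 2) hUm
    have h5 : (((A.comap π).comap f).map e.toMonoidHom).index = ((A.comap π).comap f).index :=
      Subgroup.index_map_equiv _ e
    have h6 := Cfsg.Agent.H74.Psl.min_index (F := F) (n := finrank F V - 2) rfl (by omega) (by omega)
      (((A.comap π).comap f).map e.toMonoidHom) (by
        intro h7
        apply hne
        rw [← Subgroup.index_eq_one, ← h5, h7, Subgroup.index_top])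
    rw [h5, ← Nat.card_eq_fintype_card] at h6
    rw [hUm] at h3
    exact arith hq h8 h6 h3
  have hgW' : Inv (g : V ≃ₗ[F] V) W := fun w hw => by rw [hgW w hw]; exact hw
  have h5 := exists_glue_lin hc hgW' hgU
  have h6 : restr (g : V ≃ₗ[F] V) hgW' = 1 := LinearEquiv.ext fun w => Subtype.ext (hgW w w.2)
  rw [h6] at h5
  have h7 : restr (g : V ≃ₗ[F] V) hgU ∈ slV F U := by
    have h8 := mem_slV.1 g.2
    rw [h5, Cfsg.Agent.H845.Bs.det_glue] at h8
    have h9 : LinearMap.det ((1 : W ≃ₗ[F] W) : W →ₗ[F] W) = 1 := LinearMap.det_id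
    rw [h9, one_mul] at h8
    exact h8
  have h8 : (⟨restr (g : V ≃ₗ[F] V) hgU, h7⟩ : slV F U) ∈ (A.comap π).comap f := by rw [h4]; trivial
  have h9 : f ⟨restr (g : V ≃ₗ[F] V) hgU, h7⟩ = g := Subtype.ext h5.symm
  have h10 : π (f ⟨restr (g : V ≃ₗ[F] V) hgU, h7⟩) ∈ A := h8
  rwa [h9] at h10

/-- **the final kill, `m ≥ 8`** -/
theorem final8 (h : IF A Γ) (hna : ∃ a b : T, a * b ≠ b * a) {π : slV F V →* T} (hπ : Lft π) (h2 : (2 : F) ≠ 0)
    (h8 : 8 ≤ finrank F V) {z : slV F V} (hz : Fund (z : V ≃ₗ[F] V)) (hzA : π z ∈ A) : False := by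
  classical
  obtain ⟨W, U, hc, hW2, hW, hU⟩ := hz
  have hs := Submodule.finrank_add_eq_of_isCompl hc
  let b : Basis (Fin 2 ⊕ Fin (finrank F V - 2)) F V :=
    ((finBasisOfFinrankEq F W hW2).prod (finBasisOfFinrankEq F U (by omega))).map (Submodule.prodEquivOfIsCompl W U hc)
  have hbl : ∀ i, b (Sum.inl i) ∈ W := by
    intro i
    simp [b]
  have hbr : ∀ i, b (Sum.inr i) ∈ U := by
    intro i
    simp [b]
  have hWs : W ≤ Submodule.span F (Set.range fun i => b (Sum.inl i)) := by
    have h1 := (finBasisOfFinrankEq F W hW2).span_eq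
    intro w hw
    have h3 : (⟨w, hw⟩ : W) ∈ Submodule.span F (Set.range (finBasisOfFinrankEq F W hW2)) := by rw [h1]; trivial
    have h4 := Submodule.mem_map_of_mem (f := W.subtype) h3
    rw [Submodule.map_span, ← Set.range_comp] at h4
    have h5 : (W.subtype ∘ (finBasisOfFinrankEq F W hW2)) = fun i => b (Sum.inl i) := by
      ext i
      simp [b]
    rw [h5] at h4
    exact h4
  have hUs : U ≤ Submodule.span F (Set.range fun i => b (Sum.inr i)) := by
    have h1 := (finBasisOfFinrankEq F U (n := finrank F V - 2) (by omega)).span_eq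
    intro w hw
    have h3 : (⟨w, hw⟩ : U) ∈ Submodule.span F (Set.range (finBasisOfFinrankEq F U (n := finrank F V - 2) (by omega))) := by
      rw [h1]; trivial
    have h4 := Submodule.mem_map_of_mem (f := U.subtype) h3
    rw [Submodule.map_span, ← Set.range_comp] at h4
    have h5 : (U.subtype ∘ (finBasisOfFinrankEq F U (n := finrank F V - 2) (by omega))) = fun i => b (Sum.inr i) := by
      ext i
      simp [b]
    rw [h5] at h4
    exact h4
  -- the involutions of the basis
  let zz : ∀ k l : Fin 2 ⊕ Fin (finrank F V - 2), V ≃ₗ[F] V := fun k l =>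
    glue (isCompl_basis b k l) (LinearEquiv.neg F) 1
  have hz1 : ∀ k l i, i = k ∨ i = l → zz k l (b i) = - b i := by
    intro k l i hi
    have h1 : b i ∈ Submodule.span F (b '' {k, l}) := Submodule.subset_span ⟨i, hi, rfl⟩
    exact glue_left (isCompl_basis b k l) (LinearEquiv.neg F) 1 ⟨b i, h1⟩
  have hz2 : ∀ k l i, ¬ (i = k ∨ i = l) → zz k l (b i) = b i := by
    intro k l i hi
    have h1 : b i ∈ Submodule.span F (b '' {k, l}ᶜ) := Submodule.subset_span ⟨i, hi, rfl⟩
    exact glue_right (isCompl_basis b k l) (LinearEquiv.neg F) 1 ⟨b i, h1⟩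
  have hzs : ∀ k l, k ≠ l → zz k l ∈ slV F V := by
    intro k l hkl
    rw [mem_slV, Cfsg.Agent.H845.Bs.det_glue]
    have h1 : ((LinearEquiv.neg F : Submodule.span F (b '' {k, l}) ≃ₗ[F] Submodule.span F (b '' {k, l})) :
        Submodule.span F (b '' {k, l}) →ₗ[F] Submodule.span F (b '' {k, l})) = (-1 : F) • LinearMap.id := by
      ext x
      simp
    have h9 : LinearMap.det ((1 : Submodule.span F (b '' {k, l}ᶜ) ≃ₗ[F] Submodule.span F (b '' {k, l}ᶜ)) :
        Submodule.span F (b '' {k, l}ᶜ) →ₗ[F] Submodule.span F (b '' {k, l}ᶜ)) = 1 := LinearMap.det_id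
    rw [h1, LinearMap.det_smul, LinearMap.det_id, finrank_pair b hkl, h9]
    ring
  have hzA' : ∀ k l : Fin (finrank F V - 2), ∀ hkl : k ≠ l,
      π ⟨zz (Sum.inr k) (Sum.inr l), hzs _ _ (fun h => hkl (Sum.inr_injective h))⟩ ∈ A := by
    intro k l hkl
    refine fix_mem h hna hπ h2 h8 hc hW2 hW hU hzA _ ?_ ?_
    · intro w hw
      change zz (Sum.inr k) (Sum.inr l) w = w
      have h1 : W ≤ LinearMap.ker ((zz (Sum.inr k) (Sum.inr l) : V →ₗ[F] V) - LinearMap.id) := by
        refine hWs.trans (Submodule.span_le.2 ?_)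
        rintro _ ⟨i, rfl⟩
        change zz (Sum.inr k) (Sum.inr l) (b (Sum.inl i)) - b (Sum.inl i) = 0
        rw [hz2 _ _ _ (by rintro (h | h) <;> cases h), sub_self]
      exact sub_eq_zero.1 (h1 hw)
    · intro u hu
      change zz (Sum.inr k) (Sum.inr l) u ∈ U
      have h1 : U ≤ U.comap (zz (Sum.inr k) (Sum.inr l) : V →ₗ[F] V) := by
        refine hUs.trans (Submodule.span_le.2 ?_)
        rintro _ ⟨i, rfl⟩
        change zz (Sum.inr k) (Sum.inr l) (b (Sum.inr i)) ∈ U
        by_cases hi : Sum.inr i = (Sum.inr k : Fin 2 ⊕ Fin (finrank F V - 2)) ∨ Sum.inr i = (Sum.inr l : Fin 2 ⊕ Fin (finrank F V - 2))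
        · rw [hz1 _ _ _ hi]
          exact U.neg_mem (hbr i)
        · rw [hz2 _ _ _ hi]
          exact hbr i
      exact h1 hu
  -- transvections
  have htr : ∀ i j (hij : i ≠ j) (c : F),
      π ⟨phi b (SpecialLinearGroup.transvection hij c), range_le_slV b ⟨_, rfl⟩⟩ ∈ A := by
    intro i j hij c
    obtain ⟨k, l, hkl, hk, hl⟩ : ∃ k l : Fin (finrank F V - 2), k ≠ l ∧ Sum.inr k ∉ ({i, j} : Finset (Fin 2 ⊕ Fin (finrank F V - 2))) ∧
        Sum.inr l ∉ ({i, j} : Finset (Fin 2 ⊕ Fin (finrank F V - 2))) := by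
      have h1 : 1 < (Finset.univ.filter fun k : Fin (finrank F V - 2) =>
          Sum.inr k ∉ ({i, j} : Finset (Fin 2 ⊕ Fin (finrank F V - 2)))).card := by
        have h3 := Finset.card_filter_add_card_filter_not (s := (Finset.univ : Finset (Fin (finrank F V - 2))))
          (fun k => Sum.inr k ∉ ({i, j} : Finset (Fin 2 ⊕ Fin (finrank F V - 2))))
        have h4 : (Finset.univ.filter fun k : Fin (finrank F V - 2) =>
            ¬ Sum.inr k ∉ ({i, j} : Finset (Fin 2 ⊕ Fin (finrank F V - 2)))).card ≤ 2 := by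
          calc (Finset.univ.filter fun k : Fin (finrank F V - 2) =>
              ¬ Sum.inr k ∉ ({i, j} : Finset (Fin 2 ⊕ Fin (finrank F V - 2)))).card
              = ((Finset.univ.filter fun k : Fin (finrank F V - 2) =>
              ¬ Sum.inr k ∉ ({i, j} : Finset (Fin 2 ⊕ Fin (finrank F V - 2)))).map
                ⟨Sum.inr, Sum.inr_injective⟩).card := (Finset.card_map _).symm
            _ ≤ ({i, j} : Finset (Fin 2 ⊕ Fin (finrank F V - 2))).card := by
                apply Finset.card_le_card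
                intro x hx
                rw [Finset.mem_map] at hx
                obtain ⟨k, hk, rfl⟩ := hx
                rw [Finset.mem_filter, not_not] at hk
                exact hk.2
            _ ≤ 2 := Finset.card_le_two
        rw [Finset.card_univ, Fintype.card_fin] at h3
        omega
      obtain ⟨k, hk, l, hl, hkl⟩ := Finset.one_lt_card.1 h1
      rw [Finset.mem_filter] at hk hl
      exact ⟨k, l, hkl, hk.2, hl.2⟩
    rw [Finset.mem_insert, Finset.mem_singleton, not_or] at hk hl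
    refine fix_mem h hna hπ h2 h8 (isCompl_basis b (Sum.inr k) (Sum.inr l))
      (finrank_pair b (fun h => hkl (Sum.inr_injective h))) ?_ ?_ (hzA' k l hkl) _ ?_ ?_
    · intro w hw
      exact glue_left (isCompl_basis b (Sum.inr k) (Sum.inr l)) (LinearEquiv.neg F) 1 ⟨w, hw⟩
    · intro w hw
      exact glue_right (isCompl_basis b (Sum.inr k) (Sum.inr l)) (LinearEquiv.neg F) 1 ⟨w, hw⟩
    · intro w hw
      change phi b (SpecialLinearGroup.transvection hij c) w = w
      have h1 : Submodule.span F (b '' {Sum.inr k, Sum.inr l}) ≤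
          LinearMap.ker ((phi b (SpecialLinearGroup.transvection hij c) : V →ₗ[F] V) - LinearMap.id) := by
        refine Submodule.span_le.2 ?_
        rintro _ ⟨s, hs, rfl⟩
        change phi b (SpecialLinearGroup.transvection hij c) (b s) - b s = 0
        have hsj : s ≠ j := by
          rintro rfl
          rcases hs with hs | hs
          · exact hk.2 hs.symm
          · exact hl.2 (Set.mem_singleton_iff.1 hs).symm
        rw [phi_transvection, b.repr_self, Finsupp.single_eq_of_ne hsj.symm, mul_zero, zero_smul, add_zero, sub_self]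
      exact sub_eq_zero.1 (h1 hw)
    · intro u hu
      change phi b (SpecialLinearGroup.transvection hij c) u ∈ _
      rw [phi_transvection]
      refine Submodule.add_mem _ hu (Submodule.smul_mem _ _ (Submodule.subset_span ⟨i, ?_, rfl⟩))
      rintro (hs | hs)
      · exact hk.1 hs.symm
      · exact hl.1 (Set.mem_singleton_iff.1 hs).symm
  -- conclusion
  apply h.ne_top
  rw [eq_top_iff]
  intro x _
  obtain ⟨g, rfl⟩ := hπ.surj x
  obtain ⟨M, hM⟩ := slV_le_range b g.2
  let psi : SpecialLinearGroup (Fin 2 ⊕ Fin (finrank F V - 2)) F →* slV F V :=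
    (phi b).codRestrict (slV F V) fun M => range_le_slV b ⟨M, rfl⟩
  have h1 : (A.comap π).comap psi = ⊤ := by
    rw [eq_top_iff, ← closure_transvections, Subgroup.closure_le]
    rintro _ ⟨i, j, hij, c, rfl⟩
    exact htr i j hij c
  have h3 : M ∈ (A.comap π).comap psi := by rw [h1]; trivial
  have h4 : psi M = g := Subtype.ext hM
  have h5 : π (psi M) ∈ A := h3
  rwa [h4] at h5

end

end Cfsg.Agent.H778.FX
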