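import Cfsg.Agent.H778.FX.KillL

/-!
# S5719, the cell `CellsPSL.oddlarge` (helper778)
-/

set_option autoImplicit false

namespace Cfsg.Agent.H778.FX

open Subgroup Module Cfsg.Agent.H847.Bs Cfsg.Agent.H209.Fxy

theorem two_ne {F : Type*} [Field F] [Fintype F] (ho : Odd (Fintype.card F)) : (2 : F) ≠ 0 := by
  intro h2
  have h1 := FiniteField.even_card_iff_char_two (F := F)
  have h3 : ringChar F = 2 := by
    have h4 : ringChar F ∣ 2 := by
      rw [← ringChar.spec]
      exact_mod_cast h2
    rcases (Nat.dvd_prime Nat.prime_two).1 h4 with h5 | h5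
    · exact absurd h5 (CharP.ringChar_ne_one (R := F))
    · exact h5
  have h4 := h1.1 h3
  rw [Nat.odd_iff] at ho
  omega

/-- **The cell `oddlarge`** -/
theorem oddlarge (hFT : ∀ (D : Type) [Group D] [Finite D], Odd (Nat.card D) → Group.IsSolvable D) :
    ∀ (F : Type) [Field F] [Fintype F] (n : ℕ), Odd (Fintype.card F) → 8 ≤ n →
      KillE (Matrix.ProjectiveSpecialLinearGroup (Fin n) F) := by
  intro F _ _ n ho hn A Γ h hev
  have h2 := two_ne ho
  have hs : IsSimpleGroup (Matrix.ProjectiveSpecialLinearGroup (Fin n) F) := Cfsg.Agent.S0249.result n (by omega)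
  have hfin : Finite (Matrix.ProjectiveSpecialLinearGroup (Fin n) F) := Quotient.finite _
  obtain ⟨π, hπ, -⟩ := exists_lft (F := F) (n := n)
  obtain ⟨z, hz, hzA⟩ := exists_fund (phiAll hFT) h (nonab h) hπ
    (by rw [Module.finrank_fin_fun]; omega) h2 hev
  exact final8 h (nonab h) hπ h2 (by rw [Module.finrank_fin_fun]; exact hn) hz hzA

end Cfsg.Agent.H778.FX
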